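import Cfsg.Agent.H259.GN5
import Cfsg.Agent.S2769

/-!
# Uniform Glauberman–Niles: the pair of S2808
-/

set_option autoImplicit false
set_option linter.unusedSectionVars false

namespace Cfsg.Agent.H259.GN

open Subgroup
open Cfsg.Agent.H260.Push
open scoped commutatorElement

universe u

/-- `Z(J(S))` -/
def ZJ (S : Type*) [Group S] : Subgroup S :=
  Cfsg.thompsonSubgroupA S ⊓ centralizer (Cfsg.thompsonSubgroupA S : Set S)

theorem char_subgroupOf_of_eq_top {S : Type*} [Group S] {H R : Subgroup S} (hH : H = ⊤)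
    (hR : R.Characteristic) : (R.subgroupOf H).Characteristic := by
  subst hH
  rw [Subgroup.characteristic_iff_le_comap] at hR ⊢
  intro α x hx
  have h1 := hR ((Subgroup.topEquiv.symm.trans α).trans Subgroup.topEquiv)
  have h2 : (x : S) ∈ R := hx
  exact h1 h2

theorem char_thompsonSubgroupA (S : Type*) [Group S] : (Cfsg.thompsonSubgroupA S).Characteristic := by
  rw [Subgroup.characteristic_iff_map_le]
  intro α
  unfold Cfsg.thompsonSubgroupA
  rw [Subgroup.map_le_iff_le_comap]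
  apply sSup_le
  rintro A ⟨h1, h2⟩
  rw [← Subgroup.map_le_iff_le_comap]
  apply le_sSup
  refine ⟨PLocal.ThompsonJA.isMulCommutative_map _ h1, ?_⟩
  intro B hB
  have h3 := h2 _ (PLocal.ThompsonJA.isMulCommutative_map (α.symm.toMonoidHom) hB)
  rw [PLocal.ThompsonJA.card_map_of_injective _ α.injective]
  rwa [PLocal.ThompsonJA.card_map_of_injective _ α.symm.injective] at h3

theorem char_centralizer {S : Type*} [Group S] {H : Subgroup S} (hH : H.Characteristic) :
    (centralizer (H : Set S)).Characteristic := by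
  rw [Subgroup.characteristic_iff_le_comap]
  intro α x hx
  rw [mem_comap, mem_centralizer_iff]
  intro y hy
  have h1 := (Subgroup.characteristic_iff_comap_eq.1 hH) α.symm
  have h2 : α.symm y ∈ H := by
    have h3 : y ∈ H.comap α.symm.toMonoidHom := by rw [h1]; exact hy
    exact h3
  have h3 := mem_centralizer_iff.1 hx _ h2
  have h4 := congrArg α h3
  rw [map_mul, map_mul, MulEquiv.apply_symm_apply] at h4
  exact h4

theorem char_inf {S : Type*} [Group S] {H K : Subgroup S} (hH : H.Characteristic)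
    (hK : K.Characteristic) : (H ⊓ K).Characteristic := by
  rw [Subgroup.characteristic_iff_le_comap] at hH hK ⊢
  intro α
  rw [Subgroup.comap_inf]
  exact inf_le_inf (hH α) (hK α)

theorem char_ZJ (S : Type*) [Group S] : (ZJ S).Characteristic :=
  char_inf (char_thompsonSubgroupA S) (char_centralizer (char_thompsonSubgroupA S))

section

variable {G : Type*} [Group G] [Finite G] {p q : ℕ} [hp : Fact p.Prime] {S T M : Subgroup G}

/-- the `p`-th powers of the elements of `Z(S)` are central in `G` -/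
theorem pow_central (c : Core p q S T M) (n : Core.Nat' p q S T M) :
    ∀ z ∈ cen S, z ^ p ∈ center G := by
  have hX := c.normX
  have key : ∀ y ∈ cen T, y ^ p ∈ cen S := by
    intro y hy
    rw [mem_cen]
    refine ⟨c.le (cen_le T (pow_mem hy p)), ?_⟩
    intro s hs
    have h1 := n.comm_p s hs y hy
    have h2 : s * y * s⁻¹ ∈ cen T := c.conj_mem_X hy
    have h3 : Commute (s * y * s⁻¹) y⁻¹ := by
      have : Commute (s * y * s⁻¹) y := c.cenT_comm h2 hy
      exact this.inv_right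
    have h4 : cm y s ^ p = (s * y * s⁻¹) ^ p * (y⁻¹) ^ p := by
      unfold cm
      exact h3.mul_pow p
    rw [h4, conj_pow, inv_pow, mul_inv_eq_one] at h1
    rw [mul_inv_eq_iff_eq_mul] at h1
    exact h1
  let U : Subgroup G :=
    { carrier := {z | z ∈ cen S ∧ z ∈ center G}
      one_mem' := ⟨one_mem _, one_mem _⟩
      mul_mem' := fun ha hb => ⟨mul_mem ha.1 hb.1, mul_mem ha.2 hb.2⟩
      inv_mem' := fun ha => ⟨inv_mem ha.1, inv_mem ha.2⟩ }
  obtain ⟨g, hg⟩ := c.exists_notMem_M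
  intro z hz
  -- `z ^ p` is centralised by `S` and by `g S g⁻¹`
  have h1 : S ≤ centralizer {z ^ p} := by
    intro s hs
    rw [mem_centralizer_singleton_iff]
    exact cen_comm (pow_mem hz p) hs
  have h2 : cj g S ≤ centralizer {z ^ p} := by
    intro s hs
    rw [mem_cj] at hs
    rw [mem_centralizer_singleton_iff]
    have h3 : g⁻¹ * z * g ∈ cen T := by
      have := hX.conj_mem _ (c.Zs_le hz) g⁻¹
      rwa [inv_inv] at this
    have h4 := cen_comm (key _ h3) hs
    have h5 : (g⁻¹ * z * g) ^ p = g⁻¹ * z ^ p * g := by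
      have := conj_pow (a := g⁻¹) (b := z) (i := p)
      rwa [inv_inv] at this
    rw [h5] at h4
    have e1 : g * (g⁻¹ * s * g * (g⁻¹ * z ^ p * g)) * g⁻¹ = s * z ^ p := by group
    have e2 : g * (g⁻¹ * z ^ p * g * (g⁻¹ * s * g)) * g⁻¹ = z ^ p * s := by group
    rw [← e1, ← e2, h4]
  have h3 := sup_le h1 h2
  rw [c.gen g hg] at h3
  rw [mem_center_iff]
  intro y
  exact mem_centralizer_singleton_iff.1 (h3 (mem_top y))

end

section final

variable {S : Type u} [Group S] [Finite S] {p : ℕ} [hp : Fact p.Prime]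

/-- `⟨z ^ p : z ∈ Z(S)⟩` -/
def mho (p : ℕ) (S : Type*) [Group S] : Subgroup S := Cfsg.powerClosure p 1 (center S)

theorem char_mho : (mho p S).Characteristic := by
  rw [Subgroup.characteristic_iff_map_le]
  intro α
  unfold mho
  rw [powerClosure_map]
  have h1 : (center S).map α.toMonoidHom = center S :=
    Subgroup.characteristic_iff_map_eq.1 inferInstance α
  rw [h1]

theorem mho_le : mho p S ≤ center S := by
  unfold mho Cfsg.powerClosure
  rw [closure_le]
  rintro _ ⟨z, hz, rfl⟩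
  exact pow_mem hz _

/-- the case where `Z(S)` is not elementary -/
theorem mho_pair (hJ : ZJ S ≤ center S) (hZ : ¬ ∀ z ∈ center S, z ^ p = 1) :
    ∃ S₁ S₂ : Subgroup S, S₁ ≠ ⊥ ∧ S₂ ≠ ⊥ ∧ S₁.Characteristic ∧ S₂.Characteristic ∧
      S₁ ≤ center S ∧ (∃ R : Subgroup S, R ≤ S₂ ∧ Cfsg.IsCentrallyLarge R) ∧
      ∀ (G : Type u) [Group G] [Finite G] (τ : S →* G), Function.Injective τ →
        Cfsg.IsPushingUpSituation p τ.range → (S₁.map τ).Normal ∨ (S₂.map τ).Normal := by
  push Not at hZ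
  obtain ⟨z, hz, hz1⟩ := hZ
  have hne : mho p S ≠ ⊥ := by
    intro h1
    apply hz1
    have h2 : z ^ p ∈ mho p S := subset_closure ⟨z, hz, by rw [pow_one]⟩
    rwa [h1, mem_bot] at h2
  obtain ⟨R₀, hR₀⟩ := H264.CD.exists_cent (G := S)
  refine ⟨mho p S, ⊤, hne, ?_, char_mho, inferInstance, mho_le, ⟨R₀, le_top, hR₀⟩, ?_⟩
  · intro h1
    apply hne
    rw [eq_bot_iff, ← h1]
    exact le_top
  intro G _ _ τ hτ hpu
  left
  have key : (mho p S).map τ ≤ center G := by
    rcases central_or_real hJ τ hτ hpu with h1 | ⟨q, M, c, n⟩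
    · exact (Subgroup.map_mono mho_le).trans h1
    · unfold mho
      rw [powerClosure_map]
      unfold Cfsg.powerClosure
      rw [closure_le]
      rintro _ ⟨_, ⟨z, hz, rfl⟩, rfl⟩
      rw [pow_one]
      apply pow_central c n
      rw [mem_cen]
      refine ⟨⟨z, rfl⟩, ?_⟩
      rintro _ ⟨s, rfl⟩
      rw [← map_mul, ← map_mul, mem_center_iff.1 hz s]
  constructor
  intro x hx g
  rw [mem_center_iff.1 (key hx) g, mul_inv_cancel_right]
  exact hx

/-- **The pair**, in the case `S = C_S(Z(J(S)))`. -/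
theorem pair_of_zj_le (hS : IsPGroup p S) (hJ : ZJ S ≤ center S) (hS0 : S0 p (⊤ : Subgroup S) ≠ ⊥)
    (hD : StD.{u} p) (hE : StE.{u} p) (h6 : St6.{u} p) :
    ∃ S₁ S₂ : Subgroup S, S₁ ≠ ⊥ ∧ S₂ ≠ ⊥ ∧ S₁.Characteristic ∧ S₂.Characteristic ∧
      S₁ ≤ center S ∧ (∃ R : Subgroup S, R ≤ S₂ ∧ Cfsg.IsCentrallyLarge R) ∧
      ∀ (G : Type u) [Group G] [Finite G] (τ : S →* G), Function.Injective τ →
        Cfsg.IsPushingUpSituation p τ.range → (S₁.map τ).Normal ∨ (S₂.map τ).Normal := by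
  by_cases hZ : ∀ z ∈ center S, z ^ p = 1
  · exact core_pair hS hJ hZ hS0 hD hE h6
  · exact mho_pair hJ hZ

theorem pus_of {G : Type u} [Group G] [Finite G] {P : Subgroup G}
    (h1 : ∃ Q : Sylow p G, (Q : Subgroup G) = P)
    (h2 : centralizer (Cfsg.pCore p G : Set G) ≤ Cfsg.pCore p G)
    (h3 : ∃! M : Subgroup G, IsCoatom M ∧ P ≤ M)
    (h4 : ∃ (K : Subgroup G) (_ : K.Normal) (F : Type) (_ : Field F) (_ : Fintype F) (n : ℕ), 1 ≤ n ∧
      Fintype.card F = p ^ n ∧ Nonempty (G ⧸ K ≃* Matrix.ProjectiveSpecialLinearGroup (Fin 2) F)) :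
    Cfsg.IsPushingUpSituation p P := by
  refine ⟨?_, h1, h2, h3, ?_⟩
  · intro h5
    obtain ⟨M, ⟨hM, -⟩, -⟩ := h3
    apply hM.1
    rw [eq_top_iff, h5]
    exact bot_le
  · obtain ⟨K, hK, F, iF, iF', n, -, hn, e⟩ := h4
    exact ⟨K, hK, F, iF, iF', n, hn, e⟩

/-- the case `[Z(J(S)), S] ≠ 1` -/
theorem pair_of_zj_not_le (hS : IsPGroup p S) (hJ : ⁅ZJ S, (⊤ : Subgroup S)⁆ ≠ ⊥) :
    (⁅ZJ S, (⊤ : Subgroup S)⁆ ⊓ center S ≠ ⊥) ∧
      (⁅ZJ S, (⊤ : Subgroup S)⁆ ⊓ center S).Characteristic ∧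
      (centralizer (ZJ S : Set S)).Characteristic ∧
      ∀ (G : Type u) [Group G] [Finite G] (τ : S →* G), Function.Injective τ →
        Cfsg.IsPushingUpSituation p τ.range →
          ((⁅ZJ S, (⊤ : Subgroup S)⁆ ⊓ center S).map τ).Normal ∨
            ((centralizer (ZJ S : Set S)).map τ).Normal := by
  have hZJ := char_ZJ S
  have hZJn : (ZJ S).Normal := inferInstance
  refine ⟨inf_center_ne_bot hS hJ, ?_, char_centralizer hZJ, ?_⟩
  · apply char_inf
    · exact Subgroup.commutator_characteristic _ _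
    · infer_instance
  · intro G _ _ τ hτ hpu
    obtain ⟨h0, ⟨P, hP⟩, h2, h3, K, hK, F, iF, iF', n, hn, e⟩ := hpu
    have hn1 : 1 ≤ n := by
      by_contra h1
      have : n = 0 := by omega
      rw [this, pow_zero] at hn
      have := Fintype.one_lt_card (α := F)
      omega
    have e1 : Cfsg.centerThompsonAOf τ.range = (ZJ S).map τ := (zj_map τ hτ).symm
    have e2 : ⁅Cfsg.centerThompsonAOf τ.range, τ.range⁆ = ⁅ZJ S, (⊤ : Subgroup S)⁆.map τ := by
      rw [map_commutator, e1, ← MonoidHom.range_eq_map]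
    have e3 : τ.range ⊓ centralizer (τ.range : Set G) = (center S).map τ := cen_range τ hτ
    have e4 : τ.range ⊓ centralizer (Cfsg.centerThompsonAOf τ.range : Set G) =
        (centralizer (ZJ S : Set S)).map τ := by
      rw [e1]
      ext x
      constructor
      · rintro ⟨⟨s, rfl⟩, h5⟩
        refine ⟨s, ?_, rfl⟩
        change s ∈ centralizer _
        rw [mem_centralizer_iff]
        intro z hz
        apply hτ
        rw [map_mul, map_mul]
        exact mem_centralizer_iff.1 h5 _ (mem_map_of_mem τ hz)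
      · rintro ⟨s, hs, rfl⟩
        refine ⟨⟨s, rfl⟩, ?_⟩
        change τ s ∈ centralizer _
        rw [mem_centralizer_iff]
        rintro _ ⟨z, hz, rfl⟩
        rw [← map_mul, ← map_mul, mem_centralizer_iff.1 hs z hz]
    have h5 := S2769.result P h2 (by rw [hP]; exact h3) K F n hn1 hn e (by
      rw [hP, e2]
      intro h6
      apply hJ
      rwa [Subgroup.map_eq_bot_iff_of_injective _ hτ] at h6)
    rw [hP, e2, e3, e4, ← Subgroup.map_inf _ _ _ hτ] at h5
    exact h5

theorem maxCP_of_cl {R S₂ : Subgroup S} (hR : R ≤ S₂) (hcl : Cfsg.IsCentrallyLarge R) :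
    Cfsg.maxCentralProduct S₂ = Cfsg.maxCentralProduct S := by
  have key : ∀ R' : Subgroup S₂, Nat.card R' * Nat.card (Subgroup.center R') =
      Nat.card (R'.map S₂.subtype) * Nat.card (Subgroup.center (R'.map S₂.subtype)) := by
    intro R'
    rw [H264.CD.card_center_eq, H264.CD.card_center_eq]
    have h1 : (R' ⊓ centralizer (R' : Set S₂) : Subgroup S₂).map S₂.subtype =
        (R'.map S₂.subtype) ⊓ centralizer ((R'.map S₂.subtype : Subgroup S) : Set S) :=
      map_cen S₂.subtype S₂.subtype_injective R'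
    rw [← h1, card_map' _ S₂.subtype_injective, card_map' _ S₂.subtype_injective]
  apply le_antisymm
  · obtain ⟨R', hR'⟩ := H264.CD.exists_cent (G := S₂)
    have h1 : Nat.card R' * Nat.card (Subgroup.center R') = Cfsg.maxCentralProduct S₂ := hR'
    rw [← h1, key]
    exact H264.CD.cent_le _
  · have h1 : Nat.card R * Nat.card (Subgroup.center R) = Cfsg.maxCentralProduct S := hcl
    have h2 : (R.subgroupOf S₂).map S₂.subtype = R := map_subgroupOf' hR
    have h3 := H264.CD.cent_le (R.subgroupOf S₂)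
    rw [key, h2, h1] at h3
    exact h3

theorem maxCP_of_eq_top {H : Subgroup S} (hH : H = ⊤) :
    Cfsg.maxCentralProduct H = Cfsg.maxCentralProduct S := by
  obtain ⟨R₀, hR₀⟩ := H264.CD.exists_cent (G := S)
  exact maxCP_of_cl (by rw [hH]; exact le_top) hR₀

theorem top_of_zj_le (hJ' : ZJ S ≤ center S) : centralizer (ZJ S : Set S) = ⊤ := by
  rw [eq_top_iff]
  intro g _
  rw [mem_centralizer_iff]
  intro z hz
  exact (mem_center_iff.1 (hJ' hz) g).symm

theorem zj_le_of_comm (hJ : ⁅ZJ S, (⊤ : Subgroup S)⁆ = ⊥) : ZJ S ≤ center S := by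
  rw [Subgroup.commutator_eq_bot_iff_le_centralizer] at hJ
  intro z hz
  rw [mem_center_iff]
  intro g
  exact mem_centralizer_iff.1 (hJ hz) g (mem_top g)

/-- The conclusion common to S2808, S2988, S2991. -/
def Concl (p : ℕ) (S : Type u) [Group S] : Prop :=
  ∃ S₁ S₂ : Subgroup S, S₁ ≠ ⊥ ∧ S₂ ≠ ⊥ ∧ S₁.Characteristic ∧ S₂.Characteristic ∧
      S₁ ≤ center S ∧ S₂ ≤ centralizer (ZJ S : Set S) ∧
      (S₂.subgroupOf (centralizer (ZJ S : Set S))).Characteristic ∧
      Cfsg.maxCentralProduct S₂ = Cfsg.maxCentralProduct (centralizer (ZJ S : Set S)) ∧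
      ∀ (G : Type u) [Group G] [Finite G] (τ : S →* G), Function.Injective τ →
        Cfsg.IsPushingUpSituation p τ.range → (S₁.map τ).Normal ∨ (S₂.map τ).Normal

/-- from the case `S = C_S(Z(J(S)))` -/
theorem concl_of (hJ : ZJ S ≤ center S) (h : ∃ S₁ S₂ : Subgroup S, S₁ ≠ ⊥ ∧ S₂ ≠ ⊥ ∧
      S₁.Characteristic ∧ S₂.Characteristic ∧
      S₁ ≤ center S ∧ (∃ R : Subgroup S, R ≤ S₂ ∧ Cfsg.IsCentrallyLarge R) ∧
      ∀ (G : Type u) [Group G] [Finite G] (τ : S →* G), Function.Injective τ →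
        Cfsg.IsPushingUpSituation p τ.range → (S₁.map τ).Normal ∨ (S₂.map τ).Normal) :
    Concl p S := by
  have htop := top_of_zj_le hJ
  obtain ⟨S₁, S₂, h1, h2, h3, h4, h5, ⟨R, hR, hR'⟩, h7⟩ := h
  exact ⟨S₁, S₂, h1, h2, h3, h4, h5, by rw [htop]; exact le_top,
      char_subgroupOf_of_eq_top htop h4, by rw [maxCP_of_cl hR hR', maxCP_of_eq_top htop], h7⟩

/-- **S2808** -/
theorem pair_2808 (hS : IsPGroup p S)
    (h : ⁅ZJ S, (⊤ : Subgroup S)⁆ ≠ ⊥ ∨ S0 p (⊤ : Subgroup S) ≠ ⊥)
    (hD : StD.{u} p) (hE : StE.{u} p) (h6 : St6.{u} p) : Concl p S := by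
  by_cases hJ : ⁅ZJ S, (⊤ : Subgroup S)⁆ = ⊥
  · have hS0 : S0 p (⊤ : Subgroup S) ≠ ⊥ := by
      rcases h with h | h
      · exact absurd hJ h
      · exact h
    have hJ' := zj_le_of_comm hJ
    exact concl_of hJ' (pair_of_zj_le hS hJ' hS0 hD hE h6)
  · obtain ⟨h1, h2, h3, h4⟩ := pair_of_zj_not_le hS hJ
    refine ⟨_, _, h1, ?_, h2, h3, inf_le_right, le_rfl, ?_, rfl, h4⟩
    · intro h5
      apply h1
      rw [eq_bot_iff, ← h5]
      intro x hx
      rw [mem_centralizer_iff]
      intro z _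
      exact (mem_center_iff.1 hx.2 z)
    · rw [Subgroup.subgroupOf_self]
      infer_instance

end final

end Cfsg.Agent.H259.GN
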