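import Cfsg.Agent.H259.GN6
import Cfsg.Agent.H260.Push6

/-!
# Uniform Glauberman–Niles: the reduction of S2988 and S2991
-/

set_option autoImplicit false
set_option linter.unusedSectionVars false

namespace Cfsg.Agent.H259.GN

open Subgroup
open Cfsg.Agent.H260.Push
open scoped commutatorElement Pointwise

universe u

section maps

variable {G X : Type*} [Group G] [Finite G] [Group X] [Finite X] (φ : G →* X) (hφ : Function.Injective φ) {p : ℕ}

include hφ

theorem om_map (R : Subgroup G) : (om p R).map φ = om p (R.map φ) := by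
  ext x
  rw [mem_om, ← map_cen φ hφ]
  constructor
  · rintro ⟨y, hy, rfl⟩
    have h1 := mem_om.1 hy
    exact ⟨mem_map_of_mem φ h1.1, by rw [← map_pow, h1.2, map_one]⟩
  · rintro ⟨⟨y, hy, rfl⟩, h2⟩
    refine ⟨y, mem_om.2 ⟨hy, ?_⟩, rfl⟩
    apply hφ
    rw [map_pow, map_one]
    exact h2

theorem exists_of_mcl {S : Subgroup G} {R : Subgroup X} (h : MCL (S.map φ) R) :
    ∃ R₀, MCL S R₀ ∧ R₀.map φ = R := by
  have h3 : (R.comap φ).map φ = R := Subgroup.map_comap_eq_self (h.1.1.trans (map_le_range φ S))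
  refine ⟨R.comap φ, ?_, h3⟩
  rw [← h3, mcl_map φ hφ] at h
  exact h

theorem top_map' {S R : Subgroup G} : Top p (S.map φ) (R.map φ) ↔ Top p S R := by
  constructor
  · rintro ⟨h1, h2⟩
    refine ⟨(mcl_map φ hφ).1 h1, fun R' hR' => ?_⟩
    have h3 := h2 _ ((mcl_map φ hφ).2 hR')
    rwa [← om_map φ hφ, ← om_map φ hφ, card_map' φ hφ, card_map' φ hφ] at h3
  · rintro ⟨h1, h2⟩
    refine ⟨(mcl_map φ hφ).2 h1, fun R' hR' => ?_⟩
    obtain ⟨R₀, h3, rfl⟩ := exists_of_mcl φ hφ hR'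
    rw [← om_map φ hφ, ← om_map φ hφ, card_map' φ hφ, card_map' φ hφ]
    exact h2 _ h3

end maps

/-- `S_Φ` -/
def SPhi {G : Type*} [Group G] (p : ℕ) (S : Subgroup G) : Subgroup G :=
  ⨆ R : {R : Subgroup G // Top p S R}, phi p (R : Subgroup G)

/-- `S_MCL` -/
def SMcl {G : Type*} [Group G] (S : Subgroup G) : Subgroup G := sSup {R : Subgroup G | MCL S R}

section maps

variable {G X : Type*} [Group G] [Finite G] [Group X] [Finite X] (φ : G →* X) (hφ : Function.Injective φ) {p : ℕ}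

include hφ

theorem SPhi_map (S : Subgroup G) : (SPhi p S).map φ = SPhi p (S.map φ) := by
  unfold SPhi
  rw [Subgroup.map_iSup]
  apply le_antisymm
  · apply iSup_le
    rintro ⟨R, hR⟩
    rw [phi_map]
    exact le_iSup (fun R : {R : Subgroup X // Top p (S.map φ) R} => phi p (R : Subgroup X))
      ⟨R.map φ, (top_map' φ hφ).2 hR⟩
  · apply iSup_le
    rintro ⟨R, hR⟩
    obtain ⟨R₀, h3, rfl⟩ := exists_of_mcl φ hφ hR.1
    rw [← phi_map]
    exact le_iSup (fun R : {R : Subgroup G // Top p S R} => (phi p (R : Subgroup G)).map φ)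
      ⟨R₀, (top_map' φ hφ).1 hR⟩

theorem SMcl_map (S : Subgroup G) : (SMcl S).map φ = SMcl (S.map φ) := by
  unfold SMcl
  apply le_antisymm
  · rw [Subgroup.map_le_iff_le_comap]
    apply sSup_le
    intro R hR
    rw [← Subgroup.map_le_iff_le_comap]
    exact le_sSup ((mcl_map φ hφ).2 hR)
  · apply sSup_le
    intro R hR
    obtain ⟨R₀, h3, rfl⟩ := exists_of_mcl φ hφ hR
    exact Subgroup.map_mono (le_sSup h3)

end maps

section final

variable {S : Type u} [Group S] [Finite S] {p : ℕ} [hp : Fact p.Prime]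

theorem clr_top_iff {R : Subgroup S} : CLr ⊤ R ↔ Cfsg.IsCentrallyLarge R := by
  refine ⟨cl_of_clr, fun h => ⟨le_top, fun R' _ => ?_⟩⟩
  have h1 : ∀ R : Subgroup S, mu R = Nat.card R * Nat.card (Subgroup.center R) := by
    intro R
    unfold mu
    rw [H264.CD.card_center_eq]
    rfl
  rw [h1, h1]
  have h2 : Nat.card R * Nat.card (Subgroup.center R) = Cfsg.maxCentralProduct S := h
  rw [h2]
  exact H264.CD.cent_le R'

theorem mcl_top_iff {R : Subgroup S} : MCL ⊤ R ↔ Cfsg.IsMinimalCentrallyLarge R := by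
  constructor
  · rintro ⟨h1, h2⟩
    exact ⟨clr_top_iff.1 h1, fun R' hR' hc => h2 R' hR' (clr_top_iff.2 hc)⟩
  · rintro ⟨h1, h2⟩
    exact ⟨clr_top_iff.2 h1, fun R' hR' hc => h2 R' hR' (clr_top_iff.1 hc)⟩

theorem cen_top : cen (⊤ : Subgroup S) = center S := by
  ext x
  rw [mem_cen, mem_center_iff]
  exact ⟨fun h y => h.2 y (mem_top y), fun h => ⟨mem_top x, fun y _ => h y⟩⟩

theorem map_top_equiv (α : S ≃* S) : (⊤ : Subgroup S).map α.toMonoidHom = ⊤ :=
  Subgroup.map_top_of_surjective _ α.surjective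

theorem char_SPhi : (SPhi p (⊤ : Subgroup S)).Characteristic := by
  rw [Subgroup.characteristic_iff_map_eq]
  intro α
  rw [SPhi_map _ α.injective, map_top_equiv]

theorem char_SMcl : (SMcl (⊤ : Subgroup S)).Characteristic := by
  rw [Subgroup.characteristic_iff_map_eq]
  intro α
  rw [SMcl_map _ α.injective, map_top_equiv]

theorem exists_Top : ∃ R : Subgroup S, Top p ⊤ R := by
  obtain ⟨R₀, hR₀⟩ := exists_mcl (⊤ : Subgroup S)
  obtain ⟨R₁, hR₁, hR₁m⟩ := (Set.toFinite {R : Subgroup S | MCL ⊤ R}).exists_maximalFor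
    (fun R => Nat.card (om p R)) _ ⟨R₀, hR₀⟩
  refine ⟨R₁, hR₁, fun R' hR' => ?_⟩
  by_contra h1
  push Not at h1
  exact absurd (hR₁m hR' h1.le) (not_le.2 h1)

theorem J_le_of (hJ : ZJ S ≤ center S) {G : Type u} [Group G] [Finite G] (τ : S →* G)
    (hτ : Function.Injective τ) :
    τ.range ≤ centralizer (Cfsg.centerThompsonAOf τ.range : Set G) := by
  rw [← zj_map τ hτ]
  rintro _ ⟨s, rfl⟩
  rw [mem_centralizer_iff]
  rintro _ ⟨z, hz, rfl⟩
  rw [← map_mul, ← map_mul, mem_center_iff.1 (hJ hz) s]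

/-- a nontrivial `p`-group has a nontrivial centre -/
theorem center_ne_bot [Nontrivial S] (hS : IsPGroup p S) : center S ≠ ⊥ := by
  have := hS.center_nontrivial
  exact (Subgroup.nontrivial_iff_ne_bot _).1 this

/-- the case where `Z(S)` is always central -/
theorem central_pair [Nontrivial S] (hS : IsPGroup p S)
    (h : ∀ (G : Type u) [Group G] [Finite G] (τ : S →* G), Function.Injective τ →
        Cfsg.IsPushingUpSituation p τ.range → (center S).map τ ≤ center G) :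
    ∃ S₁ S₂ : Subgroup S, S₁ ≠ ⊥ ∧ S₂ ≠ ⊥ ∧ S₁.Characteristic ∧ S₂.Characteristic ∧
      S₁ ≤ center S ∧ (∃ R : Subgroup S, R ≤ S₂ ∧ Cfsg.IsCentrallyLarge R) ∧
      ∀ (G : Type u) [Group G] [Finite G] (τ : S →* G), Function.Injective τ →
        Cfsg.IsPushingUpSituation p τ.range → (S₁.map τ).Normal ∨ (S₂.map τ).Normal := by
  obtain ⟨R₀, hR₀⟩ := H264.CD.exists_cent (G := S)
  refine ⟨center S, ⊤, center_ne_bot hS, top_ne_bot, inferInstance, inferInstance, le_rfl,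
    ⟨R₀, le_top, hR₀⟩, ?_⟩
  intro G _ _ τ hτ hpu
  left
  constructor
  intro x hx g
  rw [mem_center_iff.1 (h G τ hτ hpu hx) g, mul_inv_cancel_right]
  exact hx

/-- the case of nonabelian minimal centrally large subgroups -/
theorem mcl_pair (hS : IsPGroup p S) (hJ : ZJ S ≤ center S) {R₀ : Subgroup S} (hR₀ : MCL ⊤ R₀)
    (h : ⁅R₀, R₀⁆ ≠ ⊥) :
    ∃ S₁ S₂ : Subgroup S, S₁ ≠ ⊥ ∧ S₂ ≠ ⊥ ∧ S₁.Characteristic ∧ S₂.Characteristic ∧
      S₁ ≤ center S ∧ (∃ R : Subgroup S, R ≤ S₂ ∧ Cfsg.IsCentrallyLarge R) ∧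
      ∀ (G : Type u) [Group G] [Finite G] (τ : S →* G), Function.Injective τ →
        Cfsg.IsPushingUpSituation p τ.range → (S₁.map τ).Normal ∨ (S₂.map τ).Normal := by
  have hc : (⁅R₀, R₀⁆ : Subgroup S).Characteristic := by
    rw [Subgroup.characteristic_iff_map_eq]
    intro α
    rw [map_commutator]
    apply mcl_comm_eq (S := (⊤ : Subgroup S)) _ hR₀
    have h1 := (mcl_map α.toMonoidHom α.injective (S := (⊤ : Subgroup S)) (R := R₀)).2 hR₀
    rwa [map_top_equiv] at h1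
  have hn : (⁅R₀, R₀⁆ : Subgroup S).Normal := inferInstance
  refine ⟨center S ⊓ ⁅R₀, R₀⁆, SMcl ⊤, ?_, ?_, char_inf inferInstance hc, char_SMcl, inf_le_left,
    ⟨R₀, le_sSup hR₀, clr_top_iff.1 hR₀.1⟩, ?_⟩
  · rw [inf_comm]
    exact inf_center_ne_bot hS h
  · intro h1
    apply h
    have h2 : R₀ ≤ SMcl ⊤ := le_sSup hR₀
    rw [h1, le_bot_iff] at h2
    rw [h2]
    simp
  · intro G _ _ τ hτ hpu
    obtain ⟨q, M, c⟩ := exists_core hpu
    have h1 : MCL τ.range (R₀.map τ) := by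
      rw [MonoidHom.range_eq_map, mcl_map τ hτ]
      exact hR₀
    have h2 := inf_commutator_normal_or c (J_le_of hJ τ hτ) h1
    rw [inf_map' τ hτ, map_commutator, SMcl_map τ hτ, ← cen_top, map_cen τ hτ,
      ← MonoidHom.range_eq_map]
    exact h2

/-- the case `S_Φ ≠ 1` -/
theorem phi_pair [Nontrivial S] (hS : IsPGroup p S) (hJ : ZJ S ≤ center S)
    (h : SPhi p (⊤ : Subgroup S) ≠ ⊥) :
    ∃ S₁ S₂ : Subgroup S, S₁ ≠ ⊥ ∧ S₂ ≠ ⊥ ∧ S₁.Characteristic ∧ S₂.Characteristic ∧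
      S₁ ≤ center S ∧
      ∀ (G : Type u) [Group G] [Finite G] (τ : S →* G), Function.Injective τ →
        Cfsg.IsPushingUpSituation p τ.range → (S₁.map τ).Normal ∨ (S₂.map τ).Normal := by
  refine ⟨center S, SPhi p ⊤, center_ne_bot hS, h, inferInstance, char_SPhi, le_rfl, ?_⟩
  intro G _ _ τ hτ hpu
  obtain ⟨q, M, c⟩ := exists_core hpu
  have h2 := phi_top_normal_or c (J_le_of hJ τ hτ)
  rw [SPhi_map τ hτ, ← cen_top, map_cen τ hτ, ← MonoidHom.range_eq_map]
  exact h2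

theorem comm_of_commutator_bot {R : Subgroup S} (h : ⁅R, R⁆ = ⊥) :
    R ≤ centralizer (R : Set S) := by
  rwa [Subgroup.commutator_eq_bot_iff_le_centralizer] at h

/-- **exceptional groups** -/
theorem exc_of [Nontrivial S] (hS : IsPGroup p S) (hJ : ZJ S ≤ center S)
    (hS0 : S0 p (⊤ : Subgroup S) = ⊥) (hZ : ∀ z ∈ center S, z ^ p = 1)
    {R₀ : Subgroup S} (hR₀ : MCL ⊤ R₀) (hab : ⁅R₀, R₀⁆ = ⊥) :
    Cfsg.thompsonSubgroupA S = ⊤ ∧ Cfsg.IsElementaryAbelian p (Subgroup.center S) ∧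
      Cfsg.IsElementaryAbelian p (frattini S) ∧ (p = 2 → frattini S ≤ Subgroup.center S) ∧
      (p = 3 → frattini S ≤ Subgroup.upperCentralSeries S 2) ∧
      (3 < p → frattini S ≤ Subgroup.center S ∧ Monoid.exponent S = p) ∧
      (∀ R, Cfsg.IsMinimalCentrallyLarge R ↔ R ∈ Cfsg.maxAbelianSubgroups S) ∧
      (∀ A ∈ Cfsg.maxAbelianSubgroups S, ∀ B ∈ Cfsg.maxAbelianSubgroups S, ∀ Q : Subgroup S,
        Nat.card ↥A ^ 2 = Nat.card S * Nat.card ↥(Subgroup.center S) ∧
        Nat.card ↥Q * Nat.card ↥(Subgroup.center ↥Q) ≤ Nat.card S * Nat.card ↥(Subgroup.center S) ∧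
        ((A ⊔ B : Subgroup S) : Set S) = (A : Set S) * (B : Set S) ∧
        A ⊔ B = Subgroup.centralizer ((A ⊓ B : Subgroup S) : Set S)) := by
  have hR₁ := mcl_top_iff.1 hR₀
  have hmin : ∀ R, Cfsg.IsMinimalCentrallyLarge R ↔ R ∈ Cfsg.maxAbelianSubgroups S :=
    fun R => H264.CD.min_iff_of_comm hR₁ (comm_of_commutator_bot hab) R
  have hcl : ∀ A ∈ Cfsg.maxAbelianSubgroups S, Cfsg.IsCentrallyLarge A :=
    fun A hA => ((hmin A).2 hA).1
  have hJcl : Cfsg.IsCentrallyLarge (Cfsg.thompsonSubgroupA S) :=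
    H264.CD.Cent.sSup_mem H264.CD.MA.exists_mem hcl
  have hJtop : Cfsg.thompsonSubgroupA S = ⊤ := by
    have h1 := H264.CD.centralizer_le_of_thompson_le hJcl le_rfl
    have h2 : centralizer (ZJ S : Set S) = ⊤ := top_of_zj_le hJ
    have h3 : centralizer (ZJ S : Set S) ≤ Cfsg.thompsonSubgroupA S := h1
    rw [h2] at h3
    exact top_le_iff.1 h3
  have hmaxS : Nat.card S * Nat.card (Subgroup.center S) = Cfsg.maxCentralProduct S := by
    rw [hJtop] at hJcl
    have h1 : Nat.card (⊤ : Subgroup S) * Nat.card (Subgroup.center (⊤ : Subgroup S)) =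
        Cfsg.maxCentralProduct S := hJcl
    rw [← h1, H264.CD.card_center_eq]
    have h2 : (⊤ : Subgroup S) ⊓ centralizer ((⊤ : Subgroup S) : Set S) = center S := cen_top
    rw [h2, Subgroup.card_top]
  have hphi := frattini_eq_phi hS
  have hS0' := hS0
  unfold S0 at hS0'
  -- `Φ(S)` is elementary abelian
  have hfe : Cfsg.IsElementaryAbelian p (frattini S) := by
    have key : (∀ x ∈ frattini S, ∀ y ∈ frattini S, x * y = y * x) ∧ ∀ x ∈ frattini S, x ^ p = 1 := by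
      have h2 : phi p (phi p (⊤ : Subgroup S)) = ⊥ → (∀ x ∈ frattini S, ∀ y ∈ frattini S, x * y = y * x) ∧
          ∀ x ∈ frattini S, x ^ p = 1 := by
        intro h3
        rw [← hphi] at h3
        constructor
        · intro x hx y hy
          have h4 : ⁅x, y⁆ ∈ phi p (frattini S) := comm_mem_phi hx hy
          rwa [h3, mem_bot, commutatorElement_eq_one_iff_mul_comm] at h4
        · intro x hx
          have h4 : x ^ p ∈ phi p (frattini S) := pow_mem_phi hx
          rwa [h3, mem_bot] at h4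
      split_ifs at hS0' with h3 h4
      · exact h2 (eq_bot_iff.2 (le_sup_right.trans hS0'.le))
      · exact h2 (eq_bot_iff.2 (le_sup_right.trans hS0'.le))
      · have h5 : ⁅phi p (⊤ : Subgroup S), (⊤ : Subgroup S)⁆ = ⊥ :=
          eq_bot_iff.2 (le_sup_left.trans hS0'.le)
        have h6 : Cfsg.powerClosure p 1 (⊤ : Subgroup S) = ⊥ :=
          eq_bot_iff.2 (le_sup_right.trans hS0'.le)
        rw [← hphi, commutator_eq_bot_iff'] at h5
        refine ⟨fun x hx y _ => h5 x hx y (mem_top y), fun x _ => ?_⟩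
        have h7 : x ^ p ∈ Cfsg.powerClosure p 1 (⊤ : Subgroup S) :=
          subset_closure ⟨x, mem_top x, by rw [pow_one]⟩
        rwa [h6, mem_bot] at h7
    exact ⟨(PLocal.ThompsonJA.isMulCommutative_iff _).2 key.1, key.2⟩
  refine ⟨hJtop, ⟨inferInstance, hZ⟩, hfe, ?_, ?_, ?_, hmin, ?_⟩
  · intro h2
    rw [if_pos h2] at hS0'
    have h5 : ⁅phi p (⊤ : Subgroup S), (⊤ : Subgroup S)⁆ = ⊥ :=
      eq_bot_iff.2 (le_sup_left.trans hS0'.le)
    rw [← hphi, commutator_eq_bot_iff'] at h5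
    intro x hx
    rw [mem_center_iff]
    exact fun g => (h5 x hx g (mem_top g)).symm
  · intro h3
    rw [if_neg (by omega), if_pos h3] at hS0'
    have h5 : ⁅⁅phi p (⊤ : Subgroup S), (⊤ : Subgroup S)⁆, (⊤ : Subgroup S)⁆ = ⊥ :=
      eq_bot_iff.2 (le_sup_left.trans hS0'.le)
    rw [← hphi, commutator_eq_bot_iff'] at h5
    intro x hx
    rw [Subgroup.mem_upperCentralSeries_succ_iff]
    intro g
    rw [Subgroup.upperCentralSeries_one, mem_center_iff]
    intro y
    have h6 : ⁅x, g⁆ ∈ ⁅frattini S, (⊤ : Subgroup S)⁆ := commutator_mem_commutator hx (mem_top g)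
    exact (h5 _ h6 y (mem_top y)).symm
  · intro h3
    rw [if_neg (by omega), if_neg (by omega)] at hS0'
    have h5 : ⁅phi p (⊤ : Subgroup S), (⊤ : Subgroup S)⁆ = ⊥ :=
      eq_bot_iff.2 (le_sup_left.trans hS0'.le)
    have h6 : Cfsg.powerClosure p 1 (⊤ : Subgroup S) = ⊥ :=
      eq_bot_iff.2 (le_sup_right.trans hS0'.le)
    rw [← hphi, commutator_eq_bot_iff'] at h5
    refine ⟨?_, ?_⟩
    · intro x hx
      rw [mem_center_iff]
      exact fun g => (h5 x hx g (mem_top g)).symm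
    · have h7 : Monoid.exponent S ∣ p := by
        rw [Monoid.exponent_dvd_iff_forall_pow_eq_one]
        intro x
        have h8 : x ^ p ∈ Cfsg.powerClosure p 1 (⊤ : Subgroup S) :=
          subset_closure ⟨x, mem_top x, by rw [pow_one]⟩
        rwa [h6, mem_bot] at h8
      rcases (Nat.dvd_prime hp.out).1 h7 with h8 | h8
      · exfalso
        rw [Monoid.exp_eq_one_iff] at h8
        exact not_subsingleton S h8
      · exact h8
  · intro A hA B hB Q
    have hAc := hcl A hA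
    have hBc := hcl B hB
    have hA1 := (H264.CD.isCentrallyLarge_iff A).1 hAc
    have hB1 := (H264.CD.isCentrallyLarge_iff B).1 hBc
    refine ⟨?_, ?_, ?_, ?_⟩
    · rw [hmaxS, ← hAc, H264.CD.card_center_eq, inf_eq_left.2 (H264.CD.MA.le_cent hA), pow_two]
    · rw [hmaxS]
      exact H264.CD.cent_le Q
    · exact H264.CD.CL.sup_eq_mul hA1.1 hB1.1
    · rw [H264.CD.CL.centralizer_inf hA1.1 hB1.1, H264.CD.MA.centralizer_eq hA,
        H264.CD.MA.centralizer_eq hB]

/-- a real pushing-up group forces `S` to be nonabelian -/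
theorem not_comm_of_real {G : Type u} [Group G] [Finite G] (τ : S →* G)
    (hτ : Function.Injective τ) {q : ℕ} {T M : Subgroup G} (c : Core p q τ.range T M)
    (n : Core.Nat' p q τ.range T M) : ¬ IsMulCommutative S := by
  intro hS
  have h1 : ∀ x y : S, x * y = y * x := fun x y => hS.is_comm.comm x y
  have h2 : cen T ≤ cen τ.range := by
    intro x hx
    rw [mem_cen]
    have hxS := c.le (cen_le T hx)
    refine ⟨hxS, ?_⟩
    obtain ⟨s, rfl⟩ := hxS
    rintro _ ⟨t, rfl⟩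
    rw [← map_mul, ← map_mul, h1]
  have h3 := n.cardX
  have h4 : Nat.card (cen T) ≤ Nat.card (cen τ.range) := Nat.card_mono (Set.toFinite _) h2
  have h5 : 0 < Nat.card (cen τ.range) := Nat.card_pos
  have h6 : 1 < q := by
    have h7 := c.card
    have h8 := c.qpos
    by_contra h9
    have h10 : q = 1 := by omega
    rw [h10, one_mul] at h7
    exact c.ne (eq_of_le_of_card_le c.le h7.le).symm
  rw [h3] at h4
  nlinarith

/-- either `Z(S)` is always central or `S` is nonabelian -/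
theorem central_or_not_comm (hJ : ZJ S ≤ center S) : (∀ (G : Type u) [Group G] [Finite G] (τ : S →* G),
    Function.Injective τ → Cfsg.IsPushingUpSituation p τ.range → (center S).map τ ≤ center G) ∨
      ¬ IsMulCommutative S := by
  by_cases h : IsMulCommutative S
  · left
    intro G _ _ τ hτ hpu
    rcases central_or_real hJ τ hτ hpu with h1 | ⟨q, M, c, n⟩
    · exact h1
    · exact absurd h (not_comm_of_real τ hτ c n)
  · exact Or.inr h

/-- **S2991** -/
theorem pair_2991 [Nontrivial S] (hS : IsPGroup p S)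
    (hexc : ¬ (¬ IsMulCommutative S ∧ Cfsg.thompsonSubgroupA S = ⊤ ∧
      Cfsg.IsElementaryAbelian p (Subgroup.center S) ∧
      Cfsg.IsElementaryAbelian p (frattini S) ∧ (p = 2 → frattini S ≤ Subgroup.center S) ∧
      (p = 3 → frattini S ≤ Subgroup.upperCentralSeries S 2) ∧
      (3 < p → frattini S ≤ Subgroup.center S ∧ Monoid.exponent S = p) ∧
      (∀ A ∈ Cfsg.maxAbelianSubgroups S, ∀ B ∈ Cfsg.maxAbelianSubgroups S, ∀ Q : Subgroup S,
        Nat.card ↥A ^ 2 = Nat.card S * Nat.card ↥(Subgroup.center S) ∧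
        Nat.card ↥Q * Nat.card ↥(Subgroup.center ↥Q) ≤ Nat.card S * Nat.card ↥(Subgroup.center S) ∧
        ((A ⊔ B : Subgroup S) : Set S) = (A : Set S) * (B : Set S) ∧
        A ⊔ B = Subgroup.centralizer ((A ⊓ B : Subgroup S) : Set S))))
    (hD : StD.{u} p) (hE : StE.{u} p) (h6 : St6.{u} p) : Concl p S := by
  by_cases h0 : ⁅ZJ S, (⊤ : Subgroup S)⁆ ≠ ⊥ ∨ S0 p (⊤ : Subgroup S) ≠ ⊥
  · exact pair_2808 hS h0 hD hE h6
  push Not at h0
  obtain ⟨hJ, hS0⟩ := h0
  replace hJ := zj_le_of_comm hJ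
  apply concl_of hJ
  by_cases hZ : ∀ z ∈ center S, z ^ p = 1
  · obtain ⟨R₀, hR₀⟩ := exists_mcl (⊤ : Subgroup S)
    by_cases hab : ⁅R₀, R₀⁆ = ⊥
    · rcases central_or_not_comm (p := p) hJ with h1 | h1
      · exact central_pair hS h1
      · exfalso
        obtain ⟨e1, e2, e3, e4, e5, e6, -, e7⟩ := exc_of hS hJ hS0 hZ hR₀ hab
        exact hexc ⟨h1, e1, e2, e3, e4, e5, e6, e7⟩
    · exact mcl_pair hS hJ hR₀ hab
  · exact mho_pair hJ hZ

theorem Concl.weak (h : Concl p S) : ∃ S₁ S₂ : Subgroup S, S₁ ≠ ⊥ ∧ S₂ ≠ ⊥ ∧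
    S₁.Characteristic ∧ S₂.Characteristic ∧
      S₁ ≤ center S ∧ S₂ ≤ centralizer (ZJ S : Set S) ∧
      (S₂.subgroupOf (centralizer (ZJ S : Set S))).Characteristic ∧
      ∀ (G : Type u) [Group G] [Finite G] (τ : S →* G), Function.Injective τ →
        Cfsg.IsPushingUpSituation p τ.range → (S₁.map τ).Normal ∨ (S₂.map τ).Normal := by
  obtain ⟨S₁, S₂, h1, h2, h3, h4, h5, h7, h8, -, h9⟩ := h
  exact ⟨S₁, S₂, h1, h2, h3, h4, h5, h7, h8, h9⟩

/-- **S2988** -/
theorem pair_2988 [Nontrivial S] (hS : IsPGroup p S)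
    (hexc : ¬ (¬ IsMulCommutative S ∧ Cfsg.thompsonSubgroupA S = ⊤ ∧
      Cfsg.IsElementaryAbelian p (Subgroup.center S) ∧
      Cfsg.IsElementaryAbelian p (frattini S) ∧ (p = 2 → frattini S ≤ Subgroup.center S) ∧
      (p = 3 → frattini S ≤ Subgroup.upperCentralSeries S 2) ∧
      (3 < p → frattini S ≤ Subgroup.center S ∧ Monoid.exponent S = p) ∧
      (∃ A ∈ Cfsg.maxAbelianSubgroups S, Cfsg.IsElementaryAbelian p A) ∧
      (∀ A ∈ Cfsg.maxAbelianSubgroups S, ∀ B ∈ Cfsg.maxAbelianSubgroups S, ∀ Q : Subgroup S,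
        Nat.card ↥A ^ 2 = Nat.card S * Nat.card ↥(Subgroup.center S) ∧
        Nat.card ↥Q * Nat.card ↥(Subgroup.center ↥Q) ≤ Nat.card S * Nat.card ↥(Subgroup.center S) ∧
        ((A ⊔ B : Subgroup S) : Set S) = (A : Set S) * (B : Set S) ∧
        A ⊔ B = Subgroup.centralizer ((A ⊓ B : Subgroup S) : Set S))))
    (hD : StD.{u} p) (hE : StE.{u} p) (h6 : St6.{u} p) :
    ∃ S₁ S₂ : Subgroup S, S₁ ≠ ⊥ ∧ S₂ ≠ ⊥ ∧ S₁.Characteristic ∧ S₂.Characteristic ∧
      S₁ ≤ center S ∧ S₂ ≤ centralizer (ZJ S : Set S) ∧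
      (S₂.subgroupOf (centralizer (ZJ S : Set S))).Characteristic ∧
      ∀ (G : Type u) [Group G] [Finite G] (τ : S →* G), Function.Injective τ →
        Cfsg.IsPushingUpSituation p τ.range → (S₁.map τ).Normal ∨ (S₂.map τ).Normal := by
  by_cases h0 : ⁅ZJ S, (⊤ : Subgroup S)⁆ ≠ ⊥ ∨ S0 p (⊤ : Subgroup S) ≠ ⊥
  · exact Concl.weak (pair_2808 hS h0 hD hE h6)
  push Not at h0
  obtain ⟨hJ, hS0⟩ := h0
  replace hJ := zj_le_of_comm hJ
  have htop := top_of_zj_le hJ
  by_cases hZ : ∀ z ∈ center S, z ^ p = 1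
  · rcases central_or_not_comm (p := p) hJ with h1 | h1
    · exact Concl.weak (concl_of hJ (central_pair hS h1))
    · by_cases hphi : SPhi p (⊤ : Subgroup S) = ⊥
      · exfalso
        obtain ⟨R₀, hR₀⟩ := exists_Top (S := S) (p := p)
        have h2 : phi p R₀ = ⊥ := by
          rw [eq_bot_iff, ← hphi]
          exact le_iSup (fun R : {R : Subgroup S // Top p ⊤ R} => phi p (R : Subgroup S)) ⟨R₀, hR₀⟩
        have h3 : ∀ x ∈ R₀, ∀ y ∈ R₀, x * y = y * x := by
          intro x hx y hy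
          have h4 : ⁅x, y⁆ ∈ phi p R₀ := comm_mem_phi hx hy
          rwa [h2, mem_bot, commutatorElement_eq_one_iff_mul_comm] at h4
        have hab : ⁅R₀, R₀⁆ = ⊥ := commutator_eq_bot_iff'.2 h3
        obtain ⟨e1, e2, e3, e4, e5, e6, e0, e7⟩ := exc_of hS hJ hS0 hZ hR₀.1 hab
        refine hexc ⟨h1, e1, e2, e3, e4, e5, e6, ⟨R₀, (e0 R₀).1 (mcl_top_iff.1 hR₀.1), ?_, ?_⟩, e7⟩
        · exact (PLocal.ThompsonJA.isMulCommutative_iff _).2 h3
        · intro x hx
          have h4 : x ^ p ∈ phi p R₀ := pow_mem_phi hx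
          rwa [h2, mem_bot] at h4
      · obtain ⟨S₁, S₂, h1, h2, h3, h4, h5, h7⟩ := phi_pair hS hJ hphi
        exact ⟨S₁, S₂, h1, h2, h3, h4, h5, by rw [htop]; exact le_top,
          char_subgroupOf_of_eq_top htop h4, h7⟩
  · exact Concl.weak (concl_of hJ (mho_pair hJ hZ))

end final

end Cfsg.Agent.H259.GN
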